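import Cfsg.Agent.H621.F4T.Row
import Cfsg.Agent.H210.TC.Row

/-!
# S2452: `F₄(2)`, a class of prime order 13 (helper110, from the row of helper621)
-/

set_option autoImplicit false

namespace Cfsg.Agent.H110.TC6

open Cfsg Cfsg.Lie Cfsg.Agent.H621.F4T Cfsg.Agent.H210.TC Cfsg.Agent.H335.FT Cfsg.Agent.FourTwo.Cent Cfsg.Agent.FourTwo.Par Cfsg.Agent.FourTwo.Facts2 Cfsg.Agent.H537.Pw

universe u

theorem row3_congr {G H : Type*} [Group G] [Group H] (e : G ≃* H) (h : Row3 G) : Row3 H := h.of_equiv e.symm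

/-- **The row `F₄(2)`** of S2452. -/
theorem row3_F4_two_base : Row3 GF :=
  Row3.of_sq (x := x13) (by rw [orderOf_x13]; norm_num) (by rw [orderOf_x13]; norm_num) fun _ hg => all_two hg

/-- **The row `F₄(2)`** of S2452, over any field with two elements. -/
theorem row3_F4_two {K : Type u} [Field K] (hK : Nat.card K = 2) : Row3 ↥(chevF4.group K) := by
  have : Finite K := Nat.finite_of_card_ne_zero (by rw [hK]; norm_num)
  let _ : Fintype K := Fintype.ofFinite K
  have hc : Fintype.card (ZMod 2) = Fintype.card K := by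
    rw [ZMod.card, ← Nat.card_eq_fintype_card, hK]
  let e := Cfsg.Agent.H64.ChevField.groupCongr (FiniteField.ringEquivOfCardEq hc) chevF4
  exact @row3_congr _ _ (Subgroup.toGroup _) (Subgroup.toGroup _) e row3_F4_two_base

end Cfsg.Agent.H110.TC6
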